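-- TWOP (r = 2 slice of S5973), package [INV] (helper53): a non-scalar involution of
-- Omega^+_{2d}(q), q odd, fixes a totally singular m-space when m + 2 <= d or q = 1 mod 4.
-- Adapted from helper24's Lib/Helper24/OTS/Inv2Suf.lean.
import Mathlib
import Cfsg.Agent.Lib.Helper37.TwoP.Defs
import Cfsg.Agent.Lib.Helper24.OTS.Inv2Suf
import Cfsg.Agent.Lib.Helper12.OHyp.EBlkOdd

set_option autoImplicit false
open scoped MatrixGroups
open Matrix

namespace Cfsg.Agent.Lib.Helper53.TwoP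

open Cfsg.Agent.Lib.Helper23.OHyp Cfsg.Agent.Lib.Helper94 Cfsg.Geo Module
open Cfsg.Agent.Lib.Helper24.OTS

universe u

theorem pkgInv : Cfsg.Agent.Lib.Helper37.TwoP.PkgInv.{u} := by
  intro F _ _ d m hodd hmd hcase x hx hXX1 hns
  classical
  have hchar : ringChar F ≠ 2 := by
    intro h
    have := FiniteField.even_card_iff_char_two.mp h
    obtain ⟨k, hk⟩ := hodd
    omega
  have h2 : (2 : F) ≠ 0 := Ring.two_ne_zero hchar
  have hQ : IsNondegenerateQuadraticForm (Cfsg.quadFormPlus d F) :=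
    Cfsg.Agent.Lib.Helper12.OHyp.nondeg_quadFormPlus (F := F) d
  have hQ'coe : ⇑(Cfsg.Agent.Lib.Helper14.plusQF d F) = Cfsg.quadFormPlus d F :=
    Cfsg.Agent.Lib.Helper14.plusQF_coe d F
  have hQ'nd := Cfsg.Agent.Lib.Helper14.plusQF_nondegenerate d F
  have hcard : Fintype.card (Fin d ⊕ Fin d) = 2 * d := by
    simp only [Fintype.card_sum, Fintype.card_fin]
    omega
  have hx' : x ∈ (Cfsg.Omega F (Cfsg.quadFormPlus d F)).map
      (Cfsg.isometryGroup F (Cfsg.quadFormPlus d F)).subtype := hx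
  obtain ⟨g, hg, hgx⟩ := Subgroup.mem_map.mp hx'
  have hgX : ((g : GL (Fin d ⊕ Fin d) F) : Matrix _ _ F) =
      (x : Matrix (Fin d ⊕ Fin d) (Fin d ⊕ Fin d) F) := by
    rw [← hgx]; rfl
  have hisom : ∀ v, Cfsg.quadFormPlus d F
      ((x : Matrix (Fin d ⊕ Fin d) (Fin d ⊕ Fin d) F) *ᵥ v) =
      Cfsg.quadFormPlus d F v := fun v => by
    rw [← hgX]; exact Cfsg.Agent.Lib.Helper14.isom_preserves g v
  have hXX : ∀ v, (x : Matrix (Fin d ⊕ Fin d) (Fin d ⊕ Fin d) F) *ᵥ
      ((x : Matrix (Fin d ⊕ Fin d) (Fin d ⊕ Fin d) F) *ᵥ v) = v := by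
    intro v
    rw [Matrix.mulVec_mulVec, hXX1, Matrix.one_mulVec]
  show Cfsg.Agent.Lib.Helper37.TwoP.HasTS d m
    (x : Matrix (Fin d ⊕ Fin d) (Fin d ⊕ Fin d) F)
  generalize (x : Matrix (Fin d ⊕ Fin d) (Fin d ⊕ Fin d) F) = X at *
  obtain ⟨a, b, vp, vm, hab, hQp, hQm, hXp, hXm, hpp, hmm, -, -⟩ :=
    exists_eigen_fam hQ h2 X hisom hXX (2 * d) ⊤ (fun w _ => Submodule.mem_top) (nd_top hQ)
      (by rw [finrank_top, Module.finrank_fintype_fun_eq_card, hcard])
  have hBx : ∀ u w, pol (Cfsg.quadFormPlus d F) (X *ᵥ u) (X *ᵥ w) =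
      pol (Cfsg.quadFormPlus d F) u w := by
    intro u w
    simp only [pol, QuadraticMap.polar]
    rw [← Matrix.mulVec_add, hisom, hisom, hisom]
  have hlip := Cfsg.Agent.Lib.Helper37.OHyp.orth_linearIndependent hQ h2 vp hQp hpp
  have hlim := Cfsg.Agent.Lib.Helper37.OHyp.orth_linearIndependent hQ h2 vm hQm hmm
  have hdp : finrank F (Submodule.span F (Set.range vp)) = a := by
    rw [finrank_span_eq_card hlip, Fintype.card_fin]
  have hdm : finrank F (Submodule.span F (Set.range vm)) = b := by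
    rw [finrank_span_eq_card hlim, Fintype.card_fin]
  have hNp : Nd (Cfsg.quadFormPlus d F) (Submodule.span F (Set.range vp)) :=
    Cfsg.Agent.Lib.Helper37.OHyp.orth_nd hQ h2 vp hQp hpp
  have hNm : Nd (Cfsg.quadFormPlus d F) (Submodule.span F (Set.range vm)) :=
    Cfsg.Agent.Lib.Helper37.OHyp.orth_nd hQ h2 vm hQm hmm
  have hF1 : ∀ u ∈ Submodule.span F (Set.range vp), X *ᵥ u = u := by
    intro u hu
    induction hu using Submodule.span_induction with
    | mem y hy => obtain ⟨i, rfl⟩ := hy; exact hXp i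
    | zero => simp
    | add y z _ _ hy hz => rw [Matrix.mulVec_add, hy, hz]
    | smul c y _ hy => rw [Matrix.mulVec_smul, hy]
  have hF2 : ∀ w ∈ Submodule.span F (Set.range vm), X *ᵥ w = -w := by
    intro w hw
    induction hw using Submodule.span_induction with
    | mem y hy => obtain ⟨j, rfl⟩ := hy; exact hXm j
    | zero => simp
    | add y z _ _ hy hz => rw [Matrix.mulVec_add, hy, hz, neg_add]
    | smul c y _ hy => rw [Matrix.mulVec_smul, hy, smul_neg]
  have hF6 : ∀ u ∈ Submodule.span F (Set.range vp), ∀ w ∈ Submodule.span F (Set.range vm),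
      pol (Cfsg.quadFormPlus d F) u w = 0 := by
    intro u hu w hw
    have h1 := hBx u w
    rw [hF1 u hu, hF2 w hw, pol_neg_right hQ] at h1
    have h3 : (2 : F) * pol (Cfsg.quadFormPlus d F) u w = 0 := by linear_combination (-1 : F) * h1
    exact (mul_eq_zero.mp h3).resolve_left h2
  have hdisj : Submodule.span F (Set.range vp) ⊓ Submodule.span F (Set.range vm) = ⊥ := by
    rw [eq_bot_iff]
    rintro u ⟨hu1, hu2⟩
    have h1 := hF1 u hu1
    have h3 := hF2 u hu2
    rw [h1] at h3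
    have h4 : (2 : F) • u = 0 := by
      rw [two_smul]
      nth_rewrite 2 [h3]
      simp
    rw [Submodule.mem_bot]
    exact (smul_eq_zero.mp h4).resolve_left h2
  have hsup : Submodule.span F (Set.range vp) ⊔ Submodule.span F (Set.range vm) = ⊤ := by
    apply Submodule.eq_top_of_finrank_eq
    have h := Submodule.finrank_sup_add_finrank_inf_eq (Submodule.span F (Set.range vp))
      (Submodule.span F (Set.range vm))
    rw [hdisj, finrank_bot, hdp, hdm] at h
    rw [Module.finrank_fintype_fun_eq_card, hcard]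
    omega
  -- `X` is not scalar: both eigenspaces are nonzero
  have hb1 : 1 ≤ b := by
    by_contra hb0
    have hb0' : b = 0 := by omega
    subst hb0'
    have hbot : Submodule.span F (Set.range vm) = ⊥ := by
      rw [Submodule.span_eq_bot]
      rintro _ ⟨j, rfl⟩
      exact j.elim0
    rw [hbot, sup_bot_eq] at hsup
    apply hns 1
    rw [one_smul]
    apply Matrix.toLin'.injective
    apply LinearMap.ext
    intro z
    rw [Matrix.toLin'_apply, Matrix.toLin'_apply, Matrix.one_mulVec]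
    exact hF1 z (by rw [hsup]; exact Submodule.mem_top)
  have ha1 : 1 ≤ a := by
    by_contra ha0
    have ha0' : a = 0 := by omega
    subst ha0'
    have hbot : Submodule.span F (Set.range vp) = ⊥ := by
      rw [Submodule.span_eq_bot]
      rintro _ ⟨j, rfl⟩
      exact j.elim0
    rw [hbot, bot_sup_eq] at hsup
    apply hns (-1)
    apply Matrix.toLin'.injective
    apply LinearMap.ext
    intro z
    rw [Matrix.toLin'_apply, Matrix.toLin'_apply, Matrix.smul_mulVec, Matrix.one_mulVec,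
      neg_one_smul]
    exact hF2 z (by rw [hsup]; exact Submodule.mem_top)
  -- `X` as a product of reflections
  have hl : ∀ u ∈ List.ofFn vm, Cfsg.Agent.Lib.Helper14.plusQF d F u ≠ 0 := by
    intro u hu
    rw [List.mem_ofFn] at hu
    obtain ⟨j, rfl⟩ := hu
    rw [hQ'coe]
    exact hQm j
  have hp : (List.ofFn vm).Pairwise
      (fun u v => QuadraticMap.polar ⇑(Cfsg.Agent.Lib.Helper14.plusQF d F) u v = 0) := by
    rw [List.pairwise_ofFn]
    intro i j hij
    rw [hQ'coe]
    exact hmm i j (ne_of_lt hij)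
  have hMm : ∀ w ∈ Submodule.span F (Set.range vm),
      ((List.ofFn vm).map (Cfsg.reflectionMatrix ⇑(Cfsg.Agent.Lib.Helper14.plusQF d F))).prod *ᵥ w
        = -w := by
    intro w hw
    induction hw using Submodule.span_induction with
    | mem y hy =>
      obtain ⟨j, rfl⟩ := hy
      exact Cfsg.Agent.Lib.Helper14.prod_refl_ortho_neg _ _ hl hp (vm j)
        (by rw [List.mem_ofFn]; exact ⟨j, rfl⟩)
    | zero => simp
    | add y z _ _ hy hz => rw [Matrix.mulVec_add, hy, hz, neg_add]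
    | smul c y _ hy => rw [Matrix.mulVec_smul, hy, smul_neg]
  have hM : ((List.ofFn vm).map
      (Cfsg.reflectionMatrix ⇑(Cfsg.Agent.Lib.Helper14.plusQF d F))).prod = X := by
    apply Matrix.toLin'.injective
    apply LinearMap.ext
    intro z
    rw [Matrix.toLin'_apply, Matrix.toLin'_apply]
    have hz : z ∈ Submodule.span F (Set.range vp) ⊔ Submodule.span F (Set.range vm) := by
      rw [hsup]; exact Submodule.mem_top
    obtain ⟨u, hu, w, hw, rfl⟩ := Submodule.mem_sup.mp hz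
    rw [Matrix.mulVec_add, Matrix.mulVec_add, hF1 u hu, hF2 w hw, hMm w hw]
    congr 1
    apply Cfsg.Agent.Lib.Helper14.prod_refl_ortho_fix
    intro y hy
    rw [List.mem_ofFn] at hy
    obtain ⟨j, rfl⟩ := hy
    rw [hQ'coe, QuadraticMap.polar_comm]
    exact hF6 u hu (vm j) (Submodule.subset_span ⟨j, rfl⟩)
  obtain ⟨hev, hsq⟩ := (Cfsg.Agent.Lib.Helper14.exists_mem_omega_iff h2
    (Cfsg.Agent.Lib.Helper14.plusQF d F) hQ'nd (Cfsg.quadFormPlus d F) hQ'coe (List.ofFn vm) hl X
    hM).mp ⟨g, hg, hgX⟩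
  rw [List.length_ofFn] at hev
  have hprod : ((List.ofFn vm).map ⇑(Cfsg.Agent.Lib.Helper14.plusQF d F)).prod =
      ∏ j, Cfsg.quadFormPlus d F (vm j) := by
    rw [List.map_ofFn, List.prod_ofFn, hQ'coe]
    rfl
  rw [hprod] at hsq
  obtain ⟨s, hs⟩ := hev
  have hs1 : 1 ≤ s := by omega
  have hsd : s + 1 ≤ d := by omega
  -- the totally singular part in the `+1`-eigenspace
  obtain ⟨Up, hUp_le, hUp_ts, hUpd⟩ : ∃ U : Submodule F (Fin d ⊕ Fin d → F),
      U ≤ Submodule.span F (Set.range vp) ∧ (∀ w ∈ U, Cfsg.quadFormPlus d F w = 0) ∧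
      finrank F U = d - s - 1 := by
    obtain ⟨W₀, hW₀le, -, hW₀dim, hW₀plus⟩ := Cfsg.Agent.Lib.Helper37.OHyp.pkgGeom F
      (Fin d ⊕ Fin d) (Cfsg.quadFormPlus d F) hQ h2 (Submodule.span F (Set.range vp)) hNp
      (2 * (d - s - 1)) True (even_two_mul _) (by rw [hdp]; omega) (fun _ => trivial)
    obtain ⟨U, hU_le, hU_ts, hU_dim⟩ := hW₀plus.mpr trivial
    exact ⟨U, hU_le.trans hW₀le, hU_ts, by omega⟩
  -- the totally singular part in the `-1`-eigenspace
  obtain ⟨Um, hUm_le, hUm_ts, hUm_dim⟩ : ∃ U : Submodule F (Fin d ⊕ Fin d → F),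
      U ≤ Submodule.span F (Set.range vm) ∧ (∀ w ∈ U, Cfsg.quadFormPlus d F w = 0) ∧
      m + s + 1 ≤ d + finrank F U := by
    rcases hcase with h41 | hlt
    · have hneg : IsSquare (-1 : F) := by
        rw [FiniteField.isSquare_neg_one_iff]; omega
      have hplus : Plus (Cfsg.quadFormPlus d F) (Submodule.span F (Set.range vm)) := by
        rw [Cfsg.Agent.Lib.Helper37.OHyp.orth_plus_iff hQ h2 s (by omega) vm hQm hmm]
        rw [Finset.prod_mul_distrib, Finset.prod_const, Finset.card_univ, Fintype.card_fin]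
        refine IsSquare.mul (hneg.pow s) (IsSquare.mul ?_ hsq)
        exact ⟨2 ^ s, by rw [hs, pow_add]⟩
      obtain ⟨U, hU_le, hU_ts, hU_dim⟩ := hplus
      exact ⟨U, hU_le, hU_ts, by omega⟩
    · obtain ⟨W₁, hW₁le, -, hW₁dim, hW₁plus⟩ := Cfsg.Agent.Lib.Helper37.OHyp.pkgGeom F
        (Fin d ⊕ Fin d) (Cfsg.quadFormPlus d F) hQ h2
        (Submodule.span F (Set.range vm)) hNm (2 * (s - 1)) True (even_two_mul _)
        (by rw [hdm]; omega) (fun _ => trivial)
      obtain ⟨U, hU_le, hU_ts, hU_dim⟩ := hW₁plus.mpr trivial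
      exact ⟨U, hU_le.trans hW₁le, hU_ts, by omega⟩
  obtain ⟨Up', hUp'le, hUp'dim⟩ := exists_le_finrank_eq Up (min m (d - s - 1))
    (by rw [hUpd]; exact min_le_right _ _)
  obtain ⟨Um', hUm'le, hUm'dim⟩ := exists_le_finrank_eq Um (m - min m (d - s - 1)) (by omega)
  have hUp'sp : Up' ≤ Submodule.span F (Set.range vp) := hUp'le.trans hUp_le
  have hUm'sp : Um' ≤ Submodule.span F (Set.range vm) := hUm'le.trans hUm_le
  refine ⟨Up' ⊔ Um', ?_, ?_, ?_⟩
  · have hd : Up' ⊓ Um' = ⊥ := by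
      rw [eq_bot_iff, ← hdisj]
      exact inf_le_inf hUp'sp hUm'sp
    have h := Submodule.finrank_sup_add_finrank_inf_eq Up' Um'
    rw [hd, finrank_bot, hUp'dim, hUm'dim] at h
    omega
  · intro w hw
    obtain ⟨u, hu, w', hw', rfl⟩ := Submodule.mem_sup.mp hw
    rw [Q_add (Q := Cfsg.quadFormPlus d F), hUp_ts u (hUp'le hu), hUm_ts w' (hUm'le hw'),
      hF6 u (hUp'sp hu) w' (hUm'sp hw')]
    simp
  · rw [Submodule.map_le_iff_le_comap]
    intro w hw
    rw [Submodule.mem_comap, Matrix.toLin'_apply]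
    obtain ⟨u, hu, w', hw', rfl⟩ := Submodule.mem_sup.mp hw
    rw [Matrix.mulVec_add, hF1 u (hUp'sp hu), hF2 w' (hUm'sp hw')]
    exact Submodule.add_mem _ (Submodule.mem_sup_left hu)
      (Submodule.neg_mem _ (Submodule.mem_sup_right hw'))

end Cfsg.Agent.Lib.Helper53.TwoP
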